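import Cfsg.Agent.Lib.M3.MC

/-! # The Morse certificates for marked pairs -/

set_option autoImplicit false
set_option linter.unusedVariables false

namespace Cfsg.Lib.M3

open Griess

theorem mc3 {r1 : Q} (h1 : Short r1) (h4 : ip (ax (qN 0xc74fff)) (ax r1) = 4) {i : Fin 12} (hi : i ≠ 0) {r r' : Q}
    (h : Gd r1 (aT i) r) (h' : Gd r1 (aT i) r') (e : ip (ax r) (ax r') = 4) : MC cert ordM i [piQ r, piQ r'] :=
  mc_pair h1 h4 hi h h'

end Cfsg.Lib.M3
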